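-- Team project OHYP (S5992), package [QND] (helper92): the standard odd-dimensional quadratic
-- form is nondegenerate in odd characteristic.
import Cfsg.Agent.Lib.Helper23.OHyp.Defs

set_option autoImplicit false

namespace Cfsg.Agent.Lib.Helper92.OHyp

open Cfsg Cfsg.Geo Cfsg.Agent.Lib.Helper23.OHyp

universe u

lemma polar_quadFormOdd' {F : Type u} [Field F] (m : ℕ) (x y : Unit ⊕ (Fin m ⊕ Fin m) → F) :
    QuadraticMap.polar (quadFormOdd m F) x y =
      2 * x (.inl ()) * y (.inl ()) +
        ∑ i : Fin m, (x (.inr (.inl i)) * y (.inr (.inr i)) + y (.inr (.inl i)) * x (.inr (.inr i))) := by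
  simp only [QuadraticMap.polar, quadFormOdd, Pi.add_apply, Finset.sum_add_distrib]
  have h : ∑ i : Fin m, (x (.inr (.inl i)) + y (.inr (.inl i))) * (x (.inr (.inr i)) + y (.inr (.inr i)))
      = ∑ i : Fin m, x (.inr (.inl i)) * x (.inr (.inr i)) + ∑ i : Fin m, y (.inr (.inl i)) * y (.inr (.inr i))
        + (∑ i : Fin m, x (.inr (.inl i)) * y (.inr (.inr i)) + ∑ i : Fin m, y (.inr (.inl i)) * x (.inr (.inr i))) := by
    simp only [← Finset.sum_add_distrib]
    refine Finset.sum_congr rfl fun i _ => ?_
    ring
  rw [h]
  ring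

lemma quadFormOdd_nondeg' {F : Type u} [Field F] (h2 : (2 : F) ≠ 0) (m : ℕ) :
    IsNondegenerateQuadraticForm (quadFormOdd m F) where
  smul c v := by
    simp only [quadFormOdd, Pi.smul_apply, smul_eq_mul]
    rw [mul_add, Finset.mul_sum]
    congr 1
    · ring
    · exact Finset.sum_congr rfl fun i _ => by ring
  polar_bilinear := by
    constructor
    · intro x y v
      simp only [polar_quadFormOdd', Pi.add_apply, Finset.sum_add_distrib, add_mul, mul_add]
      ring
    · intro c x v
      simp only [polar_quadFormOdd', Pi.smul_apply, smul_eq_mul, Finset.sum_add_distrib,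
        Finset.mul_sum, mul_add]
      congr 1
      · ring
      · congr 1 <;> refine Finset.sum_congr rfl fun i _ => ?_ <;> ring
    · intro v x y
      simp only [polar_quadFormOdd', Pi.add_apply, Finset.sum_add_distrib, add_mul, mul_add]
      ring
    · intro c v x
      simp only [polar_quadFormOdd', Pi.smul_apply, smul_eq_mul, Finset.sum_add_distrib,
        Finset.mul_sum, mul_add]
      congr 1
      · ring
      · congr 1 <;> refine Finset.sum_congr rfl fun i _ => ?_ <;> ring
  nondegenerate := by
    intro v hv
    have key : ∃ x, QuadraticMap.polar (quadFormOdd m F) x v ≠ 0 := by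
      by_contra hcon'
      have hcon : ∀ x, QuadraticMap.polar (quadFormOdd m F) x v = 0 := fun x => by
        by_contra h
        exact hcon' ⟨x, h⟩
      apply hv
      funext j
      rcases j with ⟨⟩ | j | j
      · have h := hcon (Pi.single (.inl ()) 1)
        rw [polar_quadFormOdd'] at h
        simp at h
        simpa [h2] using h
      · have h := hcon (Pi.single (.inr (.inr j)) 1)
        rw [polar_quadFormOdd'] at h
        simpa [Pi.single_apply, Finset.sum_ite_eq] using h
      · have h := hcon (Pi.single (.inr (.inl j)) 1)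
        rw [polar_quadFormOdd'] at h
        simpa [Pi.single_apply, Finset.sum_ite_eq] using h
    refine ⟨key, ?_⟩
    obtain ⟨x, hx⟩ := key
    exact ⟨x, by rwa [QuadraticMap.polar_comm]⟩

/-- Package [QND]. -/
theorem pkgQnd : PkgQnd.{u} := fun _ _ h2 d => quadFormOdd_nondeg' h2 d

end Cfsg.Agent.Lib.Helper92.OHyp
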